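import Cfsg.Agent.CoFiveC.Row
import Cfsg.Agent.S1620
import Cfsg.Agent.J2Sylow.SporSylow

/-!
# S1814, the row `Co1`, `p = 5`, from `XX s ≅ J2` for fixed rank 0 (helper67)
-/

set_option autoImplicit false

namespace Cfsg.Agent.CoFiveC.JTwo

open Cfsg Cfsg.Agent.MFive
open Cfsg.Agent.LThreeMB (fr XX)
open Cfsg.Spor (Co1)

universe u

theorem near_of_isoJ2 {S : Type u} [Group S] (h : Spor.IsoJ2 S) : Near 5 S := by
  obtain ⟨e⟩ := id h
  refine Near.of_simple ((MulEquiv.isSimpleGroup_congr e).2 Cfsg.Agent.S1620.result.1) ?_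
    (Or.inr (Or.inr (Or.inr (Or.inr (Or.inl ⟨rfl, ?_⟩)))))
  · rw [Nat.card_congr e.toEquiv, Cfsg.Agent.J2Sylow.SporSylow.card_J2]
    decide
  · unfold IsCFiveListed
    tauto

/-- **Row `Co1`, `p = 5`.** -/
theorem autC_of (hJ : ∀ s : Co1, orderOf s = 5 → fr s = 1 → Spor.IsoJ2 (XX s)) : CpAut.AutC 5 Co1 :=
  Row.autC_of fun s hs h => near_of_isoJ2 (hJ s hs h)

end Cfsg.Agent.CoFiveC.JTwo
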